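import Mathlib
import Cfsg.Agent.Lib.CoverL34.Check

/-!
# The triangular system modulo 2
-/

set_option autoImplicit false

namespace Cfsg.Agent.Lib.CoverL34.Solve

open Cfsg.Agent.Lib.CoverL34.Check

section

variable {A : Type*} [CommGroup A] (h2 : ∀ x : A, x * x = 1) (p0 p1 p2 p3 : A)

/-- Evaluation of a mask. -/
def ev (m : ℕ) : A :=
  (if m.testBit 0 = true then p0 else 1) * (if m.testBit 1 = true then p1 else 1) *
    (if m.testBit 2 = true then p2 else 1) * (if m.testBit 3 = true then p3 else 1)

include h2 in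
theorem ite_xor (a b : Bool) (p : A) :
    (if (xor a b) = true then p else 1) = (if a = true then p else 1) * (if b = true then p else 1) := by
  cases a <;> cases b <;> simp [h2]

include h2 in
theorem ev_xor (m m' : ℕ) : ev p0 p1 p2 p3 (Nat.xor m m') = ev p0 p1 p2 p3 m * ev p0 p1 p2 p3 m' := by
  have e : Nat.xor m m' = m ^^^ m' := rfl
  unfold ev
  rw [e, Nat.testBit_xor, Nat.testBit_xor, Nat.testBit_xor, Nat.testBit_xor, ite_xor h2, ite_xor h2, ite_xor h2,
    ite_xor h2]
  generalize (if m.testBit 0 = true then p0 else 1) = a0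
  generalize (if m.testBit 1 = true then p1 else 1) = a1
  generalize (if m.testBit 2 = true then p2 else 1) = a2
  generalize (if m.testBit 3 = true then p3 else 1) = a3
  generalize (if m'.testBit 0 = true then p0 else 1) = b0
  generalize (if m'.testBit 1 = true then p1 else 1) = b1
  generalize (if m'.testBit 2 = true then p2 else 1) = b2
  generalize (if m'.testBit 3 = true then p3 else 1) = b3
  simp only [mul_assoc, mul_left_comm, mul_comm]

theorem ev_zero : ev p0 p1 p2 p3 0 = 1 := by
  simp [ev]

variable (kv : ℕ → A)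

include h2 in
theorem prod_delta (L : List ℕ) :
    (L.map (fun y => kv y * ev p0 p1 p2 p3 (valD y))).prod = (L.map kv).prod * ev p0 p1 p2 p3 (xorAll L) := by
  induction L with
  | nil => simp [xorAll, ev_zero]
  | cons y L ih =>
    simp only [List.map_cons, List.prod_cons, xorAll, ih, ev_xor h2]
    simp only [mul_assoc, mul_left_comm, mul_comm]

include h2 in
theorem prod_isolate (δ : ℕ → A) (hδ : δ = fun y => kv y * ev p0 p1 p2 p3 (valD y)) (x : ℕ) (L : List ℕ)
    (hL : ∀ y ∈ L, y ≠ x → δ y = 1) : (L.map δ).prod = if oddCount x L = true then δ x else 1 := by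
  have h2' : δ x * δ x = 1 := h2 _
  induction L with
  | nil => simp [oddCount]
  | cons y L ih =>
    have ih' := ih (fun z hz => hL z (List.mem_cons_of_mem _ hz))
    rw [List.map_cons, List.prod_cons, ih']
    by_cases hy : y = x
    · subst hy
      have h3 : oddCount y (y :: L) = !(oddCount y L) := by
        show (if Nat.beq y y = true then !(oddCount y L) else oddCount y L) = _
        rw [if_pos (Nat.beq_refl y)]
      rw [h3]
      cases oddCount y L <;> simp [h2']
    · have h3 : Nat.beq y x = false := by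
        cases h : Nat.beq y x
        · rfl
        · exact absurd (Nat.eq_of_beq_eq_true h) hy
      have h4 : oddCount x (y :: L) = oddCount x L := by
        show (if Nat.beq y x = true then !(oddCount x L) else oddCount x L) = _
        rw [if_neg (by rw [h3]; exact Bool.false_ne_true)]
      rw [h4, hL y List.mem_cons_self hy, one_mul]

theorem allLow_spec {x r : ℕ} {L : List ℕ} (h : allLow x r L = true) {y : ℕ} (hy : y ∈ L) (hne : y ≠ x) :
    y < nX ∧ rkD y < r := by
  induction L with
  | nil => simp at hy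
  | cons z L ih =>
    simp only [allLow, Bool.and_eq_true, Bool.or_eq_true] at h
    rcases List.mem_cons.mp hy with rfl | hy2
    · rcases h.1 with h1 | h1
      · exact absurd (Nat.eq_of_beq_eq_true h1) hne
      · exact ⟨Nat.blt_eq.mp h1.1, Nat.blt_eq.mp h1.2⟩
    · exact ih h.2 hy2

include h2 in
/-- **The triangular system.** -/
theorem solve (hbase : ∀ x, baseOK x = true → kv x = ev p0 p1 p2 p3 (valD x))
    (heq : ∀ v j, v < nV → j < 7 → pathEnd v (rel j) = v → ((eqVars v j).map kv).prod = 1) :
    ∀ x, x < nX → kv x = ev p0 p1 p2 p3 (valD x) := by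
  intro x
  induction' hr : rkD x using Nat.strong_induction_on with r ih generalizing x
  intro hx
  have h1 := var_spec hx
  have h5 : Nat.blt x nX = true := Nat.blt_eq.mpr hx
  simp only [varOK, h5, Bool.not_true, Bool.false_or, Bool.or_eq_true] at h1
  rcases h1 with h1 | h1
  · exact hbase x h1
  · simp only [eqnOK, Bool.and_eq_true] at h1
    obtain ⟨⟨⟨⟨⟨h6, h7⟩, h8⟩, h9⟩, h10⟩, h11⟩ := h1
    set v := Nat.shiftRight (eqD x) 3 with hv
    set j := Nat.land (eqD x) 7 with hj
    set L := eqVars v j with hL
    set δ : ℕ → A := fun y => kv y * ev p0 p1 p2 p3 (valD y) with hδ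
    have h12 : (L.map kv).prod = 1 := heq v j (Nat.blt_eq.mp h6) (Nat.blt_eq.mp h7) (Nat.eq_of_beq_eq_true h8)
    have h13 := prod_delta h2 p0 p1 p2 p3 kv L
    rw [h12, Nat.eq_of_beq_eq_true h9, ev_zero, one_mul] at h13
    have h14 : ∀ y ∈ L, y ≠ x → δ y = 1 := by
      intro y hy hne
      obtain ⟨h15, h16⟩ := allLow_spec h11 hy hne
      rw [hr] at h16
      show kv y * ev p0 p1 p2 p3 (valD y) = 1
      rw [ih _ h16 y rfl h15]
      exact h2 _
    have h17 := prod_isolate h2 p0 p1 p2 p3 kv δ hδ x L h14
    rw [h10, if_pos rfl] at h17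
    have h18 : δ x = 1 := h17.symm.trans h13
    have h19 : kv x * ev p0 p1 p2 p3 (valD x) = 1 := h18
    calc kv x = kv x * (ev p0 p1 p2 p3 (valD x) * ev p0 p1 p2 p3 (valD x)) := by rw [h2]; simp
      _ = (kv x * ev p0 p1 p2 p3 (valD x)) * ev p0 p1 p2 p3 (valD x) := by rw [mul_assoc]
      _ = ev p0 p1 p2 p3 (valD x) := by rw [h19, one_mul]

end

end Cfsg.Agent.Lib.CoverL34.Solve
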