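import Mathlib
import Cfsg.Agent.Lib.CoverL34.Solve

/-!
# Bounding a central extension by the Cayley graph

Lifts along the spanning tree; every edge gives a central element, and the triangular system
shows that these elements form a group of order at most four.
-/

set_option autoImplicit false

namespace Cfsg.Agent.Lib.CoverL34.Lift

open Cfsg.Agent.Lib.CoverL34.Check Cfsg.Agent.Lib.CoverL34.Solve Subgroup

section

variable {Y : Type*} [Group Y] (gen : ℕ → Y)

/-- Lifts along the tree. -/
noncomputable def tT (v : ℕ) : Y :=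
  if h : 0 < v ∧ parV v < v then gen (pgV v) * tT (parV v) else 1
termination_by v
decreasing_by exact h.2

theorem tT_eq (v : ℕ) : tT gen v = if h : 0 < v ∧ parV v < v then gen (pgV v) * tT gen (parV v) else 1 := by
  rw [tT]

theorem tT_zero : tT gen 0 = 1 := by
  rw [tT_eq]
  simp

theorem tT_pos {v : ℕ} (h0 : 0 < v) (hv : v < nV) : tT gen v = gen (pgV v) * tT gen (parV v) := by
  rw [tT_eq, dif_pos ⟨h0, (tree_spec h0 hv).1⟩]

/-- The image of a lift. -/
theorem map_tT {Y' D : Type*} [Group Y'] [Group D] (gen' : ℕ → Y') (f : Y →* D) (f' : Y' →* D)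
    (h : ∀ g, g < 2 → f (gen g) = f' (gen' g)) (v : ℕ) : f (tT gen v) = f' (tT gen' v) := by
  induction v using Nat.strong_induction_on with
  | _ v ih =>
    rw [tT_eq, tT_eq gen' v]
    by_cases h0 : 0 < v ∧ parV v < v
    · rw [dif_pos h0, dif_pos h0, map_mul, map_mul, ih _ h0.2, h _ (by
        rcases pg_cases v with h1 | h1 <;> omega)]
    · rw [dif_neg h0, dif_neg h0, map_one, map_one]

/-- The central element of an edge. -/
noncomputable def kE (v g : ℕ) : Y := gen g * tT gen v * (tT gen (nxD v g))⁻¹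

/-- Evaluation of a word, first letter applied first. -/
def evalW : List ℕ → Y
  | [] => 1
  | g :: w => evalW w * gen g

/-- The element of a variable. -/
noncomputable def kvY (x : ℕ) : Y :=
  if x < 2 * nV then kE gen (Nat.shiftRight x 1) (Nat.land x 1) else evalW gen (rel (x - 2 * nV))

theorem shr_eq (x : ℕ) : Nat.shiftRight x 1 = x / 2 := by
  show x >>> 1 = _
  rw [Nat.shiftRight_eq_div_pow]

theorem land_eq (x : ℕ) : Nat.land x 1 = x % 2 := by
  show x &&& 1 = _
  exact Nat.and_one_is_mod _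

theorem kvY_edge {v g : ℕ} (hv : v < nV) (hg : g < 2) : kvY gen (Nat.add (Nat.mul 2 v) g) = kE gen v g := by
  have e : Nat.add (Nat.mul 2 v) g = 2 * v + g := rfl
  rw [e]
  unfold kvY
  rw [if_pos (by omega), shr_eq, land_eq]
  congr 1 <;> omega

theorem edgesOf_lt {w : List ℕ} (hw : ∀ g ∈ w, g < 2) :
    ∀ {v : ℕ}, v < nV → ∀ e ∈ edgesOf v w, e < 2 * nV := by
  induction w with
  | nil =>
    intro v _ e he
    simp [edgesOf] at he
  | cons g w ih =>
    intro v hv e he
    simp only [edgesOf, List.mem_cons] at he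
    have hg := hw g List.mem_cons_self
    rcases he with rfl | he
    · show 2 * v + g < _
      omega
    · exact ih (fun g' hg' => hw g' (List.mem_cons_of_mem _ hg'))
        (nx_lt hv (by omega)) e he

theorem evalW_spec (hc : ∀ v, v < nV → ∀ g, g < 2 → kE gen v g ∈ center Y) {w : List ℕ} (hw : ∀ g ∈ w, g < 2) :
    ∀ {v : ℕ}, v < nV → evalW gen w * tT gen v =
      ((edgesOf v w).map (kvY gen)).prod * tT gen (pathEnd v w) := by
  induction w with
  | nil =>
    intro v _
    simp [evalW, edgesOf, pathEnd]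
  | cons g w ih =>
    intro v hv
    have hg := hw g List.mem_cons_self
    have h1 := ih (fun g' hg' => hw g' (List.mem_cons_of_mem _ hg')) (nx_lt hv (by omega) : nxD v g < nV)
    simp only [evalW, edgesOf, pathEnd, List.map_cons, List.prod_cons, kvY_edge gen hv hg]
    have h2 : gen g * tT gen v = kE gen v g * tT gen (nxD v g) := by
      unfold kE
      group
    rw [mul_assoc, h2, ← mul_assoc (evalW gen w), mem_center_iff.mp (hc v hv g hg) (evalW gen w), mul_assoc,
      h1, mul_assoc]

end

/-- The letters of the relators. -/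
theorem rel_lt : ∀ j, j < 7 → ∀ g ∈ rel j, g < 2 := by
  intro j hj
  have : ∀ j : Fin 7, (rel j.1).all (fun g => decide (g < 2)) = true := by decide
  have h := this ⟨j, hj⟩
  intro g hg
  have := List.all_eq_true.mp h g hg
  simpa using this

/-- Loops at the root. -/
theorem rel_loop : ∀ j, j < 7 → pathEnd 0 (rel j) = 0 := by
  intro j hj
  have : ∀ j : Fin 7, pathEnd 0 (rel j.1) = 0 := by decide +kernel
  exact this ⟨j, hj⟩

section

variable {A : Type*} [CommGroup A] (h2 : ∀ x : A, x * x = 1)

include h2 in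
theorem prod_ev (p0 p1 p2 p3 : A) (kv : ℕ → A) {L : List ℕ} (hL : ∀ y ∈ L, kv y = ev p0 p1 p2 p3 (valD y)) :
    (L.map kv).prod = ev p0 p1 p2 p3 (xorAll L) := by
  induction L with
  | nil => simp [xorAll, ev_zero]
  | cons y L ih =>
    simp only [List.map_cons, List.prod_cons, xorAll, ev_xor h2]
    rw [hL y List.mem_cons_self, ih (fun z hz => hL z (List.mem_cons_of_mem _ hz))]

theorem ev_one (p0 p1 p2 p3 : A) : ev p0 p1 p2 p3 1 = p0 := by
  unfold ev
  rw [if_pos (show Nat.testBit 1 0 = true by decide), if_neg (show ¬Nat.testBit 1 1 = true by decide),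
    if_neg (show ¬Nat.testBit 1 2 = true by decide), if_neg (show ¬Nat.testBit 1 3 = true by decide)]
  simp

theorem ev_two (p0 p1 p2 p3 : A) : ev p0 p1 p2 p3 2 = p1 := by
  unfold ev
  rw [if_neg (show ¬Nat.testBit 2 0 = true by decide), if_pos (show Nat.testBit 2 1 = true by decide),
    if_neg (show ¬Nat.testBit 2 2 = true by decide), if_neg (show ¬Nat.testBit 2 3 = true by decide)]
  simp

theorem ev_four (p0 p1 p2 p3 : A) : ev p0 p1 p2 p3 4 = p2 := by
  unfold ev
  rw [if_neg (show ¬Nat.testBit 4 0 = true by decide), if_neg (show ¬Nat.testBit 4 1 = true by decide),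
    if_pos (show Nat.testBit 4 2 = true by decide), if_neg (show ¬Nat.testBit 4 3 = true by decide)]
  simp

theorem ev_eight (p0 p1 p2 p3 : A) : ev p0 p1 p2 p3 8 = p3 := by
  unfold ev
  rw [if_neg (show ¬Nat.testBit 8 0 = true by decide), if_neg (show ¬Nat.testBit 8 1 = true by decide),
    if_neg (show ¬Nat.testBit 8 2 = true by decide), if_pos (show Nat.testBit 8 3 = true by decide)]
  simp

theorem ev_seven (p0 p1 p2 p3 : A) : ev p0 p1 p2 p3 7 = p0 * p1 * p2 := by
  unfold ev
  rw [if_pos (show Nat.testBit 7 0 = true by decide), if_pos (show Nat.testBit 7 1 = true by decide),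
    if_pos (show Nat.testBit 7 2 = true by decide), if_neg (show ¬Nat.testBit 7 3 = true by decide)]
  simp

/-- The values of the four-group. -/
def cc (p0 p1 : A) (t : Bool × Bool) : A := (if t.1 = true then p0 else 1) * (if t.2 = true then p1 else 1)

include h2 in
theorem cc_mul (p0 p1 : A) (t t' : Bool × Bool) : cc p0 p1 t * cc p0 p1 t' = cc p0 p1 (xor t.1 t'.1, xor t.2 t'.2) := by
  obtain ⟨a, b⟩ := t
  obtain ⟨c, d⟩ := t'
  have h3 : p0 * p0 = 1 := h2 _
  have h4 : p1 * p1 = 1 := h2 _
  have h5 : p0 * p1 * (p0 * p1) = 1 := h2 _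
  have h6 : p1 * (p0 * p1) = p0 := by
    rw [mul_left_comm, h4, mul_one]
  have h7 : p0 * (p0 * p1) = p1 := by
    rw [← mul_assoc, h3, one_mul]
  cases a <;> cases b <;> cases c <;> cases d <;>
    simp [cc, h3, h4, h5, mul_assoc, mul_left_comm, mul_comm, h6, h7]

include h2 in
theorem ev_mem (p0 p1 p2 p3 : A) (h3 : p3 = 1) (h7 : p0 * p1 * p2 = 1) (m : ℕ) :
    ∃ t, ev p0 p1 p2 p3 m = cc p0 p1 t := by
  have h8 : p2 = p0 * p1 := by
    have h9 := h2 (p0 * p1)
    calc p2 = (p0 * p1) * (p0 * p1) * p2 := by rw [h9, one_mul]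
      _ = (p0 * p1) * (p0 * p1 * p2) := by rw [mul_assoc]
      _ = p0 * p1 := by rw [h7, mul_one]
  subst h3
  subst h8
  unfold ev
  have h4 : p0 * p0 = 1 := h2 _
  have h5 : p1 * p1 = 1 := h2 _
  have h6 : p1 * (p0 * p1) = p0 := by
    rw [mul_left_comm, h5, mul_one]
  have h10 : p0 * (p0 * p1) = p1 := by
    rw [← mul_assoc, h4, one_mul]
  cases m.testBit 0 <;> cases m.testBit 1 <;> cases m.testBit 2
  · exact ⟨(false, false), by simp [cc]⟩
  · exact ⟨(true, true), by simp [cc]⟩
  · exact ⟨(false, true), by simp [cc]⟩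
  · exact ⟨(true, false), by simp [cc, h6]⟩
  · exact ⟨(true, false), by simp [cc]⟩
  · exact ⟨(false, true), by simp [cc, h10]⟩
  · exact ⟨(true, true), by simp [cc]⟩
  · exact ⟨(false, false), by simp [cc, h4, h5, mul_assoc, mul_left_comm, mul_comm]⟩

end

/-- **The bound.** -/
theorem card_le_four {Y : Type*} [Group Y] [Finite Y] (gen : ℕ → Y) (K : Subgroup Y) (hK : K ≤ center Y)
    (h2K : ∀ x ∈ K, x * x = 1) (h0 : gen 0 ^ 3 = 1) (h1 : gen 1 ^ 3 = 1)
    (htop : closure {gen 0, gen 1} = ⊤) (H3 : ∀ v, v < nV → ∀ g, g < 2 → kE gen v g ∈ K)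
    (H4 : ∀ v, v < nV → tT gen v ∈ K → v = 0) : Nat.card K ≤ 4 := by
  have hc : ∀ v, v < nV → ∀ g, g < 2 → kE gen v g ∈ center Y := fun v hv g hg => hK (H3 v hv g hg)
  -- the relators lie in `K`
  have hrel : ∀ j, j < 7 → evalW gen (rel j) ∈ K := by
    intro j hj
    have h3 := evalW_spec gen hc (rel_lt j hj) (show 0 < nV by decide)
    rw [rel_loop j hj, tT_zero, mul_one, mul_one] at h3
    rw [h3]
    apply Subgroup.list_prod_mem
    intro x hx
    obtain ⟨e, he, rfl⟩ := List.mem_map.mp hx
    have h4 := edgesOf_lt (rel_lt j hj) (show 0 < nV by decide) e he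
    unfold kvY
    rw [if_pos h4]
    apply H3
    · rw [shr_eq]
      omega
    · rw [land_eq]
      omega
  have hmem : ∀ x, x < nX → kvY gen x ∈ K := by
    intro x hx
    unfold kvY
    have e1 : nX = 40327 := rfl
    have e2 : nV = 20160 := rfl
    split_ifs with h
    · apply H3
      · rw [shr_eq]
        omega
      · rw [land_eq]
        omega
    · apply hrel
      omega
  letI : CommGroup K := { (inferInstance : Group K) with
    mul_comm := fun a b => Subtype.ext (mem_center_iff.mp (hK a.2) b.1).symm }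
  have h2 : ∀ x : K, x * x = 1 := fun x => Subtype.ext (h2K x.1 x.2)
  -- the variables
  let kv : ℕ → K := fun x => if h : x < nX then ⟨kvY gen x, hmem x h⟩ else 1
  have hkv : ∀ x, x < nX → (kv x : Y) = kvY gen x := by
    intro x hx
    simp only [kv, dif_pos hx]
  have hkvL : ∀ L : List ℕ, (∀ x ∈ L, x < nX) → (((L.map kv).prod : K) : Y) = (L.map (kvY gen)).prod := by
    intro L
    induction L with
    | nil => simp
    | cons y L ih =>
      intro hL
      simp only [List.map_cons, List.prod_cons, Subgroup.coe_mul]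
      rw [hkv y (hL y List.mem_cons_self), ih (fun z hz => hL z (List.mem_cons_of_mem _ hz))]
  have heqlt : ∀ v j, v < nV → j < 7 → ∀ x ∈ eqVars v j, x < nX := by
    intro v j hv hj x hx
    have e1 : nX = 40327 := rfl
    have e2 : nV = 20160 := rfl
    simp only [eqVars, List.mem_cons] at hx
    rcases hx with rfl | hx
    · show 2 * nV + j < nX
      omega
    · have := edgesOf_lt (rel_lt j hj) hv x hx
      omega
  have hkv2 : ∀ j, j < 7 → kvY gen (Nat.add (Nat.mul 2 nV) j) = evalW gen (rel j) := by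
    intro j _
    have e3 : Nat.add (Nat.mul 2 nV) j = 2 * nV + j := rfl
    rw [e3]
    unfold kvY
    rw [if_neg (by omega), Nat.add_sub_cancel_left]
  have heq : ∀ v j, v < nV → j < 7 → pathEnd v (rel j) = v → ((eqVars v j).map kv).prod = 1 := by
    intro v j hv hj hp
    apply Subtype.ext
    rw [hkvL _ (heqlt v j hv hj)]
    simp only [eqVars, List.map_cons, List.prod_cons]
    have h3 := evalW_spec gen hc (rel_lt j hj) hv
    rw [hp, mul_left_inj] at h3
    rw [hkv2 j hj, ← h3]
    exact h2K _ (hrel j hj)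
  obtain ⟨p0, hp0⟩ : ∃ p : K, p = kv 40322 := ⟨_, rfl⟩
  obtain ⟨p1, hp1⟩ : ∃ p : K, p = kv 40323 := ⟨_, rfl⟩
  obtain ⟨p2, hp2⟩ : ∃ p : K, p = kv 40324 := ⟨_, rfl⟩
  obtain ⟨p3, hp3⟩ : ∃ p : K, p = kv 40326 := ⟨_, rfl⟩
  have hbase : ∀ x, baseOK x = true → kv x = ev p0 p1 p2 p3 (valD x) := by
    intro x hx
    unfold baseOK at hx
    by_cases h3 : Nat.blt x (Nat.mul 2 nV) = true
    · rw [if_pos h3] at hx
      simp only [Bool.and_eq_true, Bool.not_eq_true'] at hx
      obtain ⟨⟨h4, h5⟩, h6⟩ := hx
      have h3' : x < 2 * nV := Nat.blt_eq.mp h3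
      have h7 : Nat.shiftRight x 1 < nV := by
        rw [shr_eq]
        omega
      have h8 : Nat.land x 1 < 2 := by
        rw [land_eq]
        omega
      set nn := nxD (Nat.shiftRight x 1) (Nat.land x 1) with hnn
      have h9 : nn < nV := nx_lt h7 (by omega)
      have h10 : 0 < nn := by
        rcases Nat.eq_zero_or_pos nn with h | h
        · rw [h] at h4
          exact absurd h4 (by decide)
        · exact h
      have h11 : valD x = 0 := Nat.eq_of_beq_eq_true h6
      have h12 : x < nX := by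
        have e1 : nX = 40327 := rfl
        have e2 : nV = 20160 := rfl
        omega
      have h13 : x = 2 * parV nn + pgV nn := Nat.eq_of_beq_eq_true h5
      have h14 : Nat.shiftRight x 1 = parV nn := by
        rw [shr_eq]
        rcases pg_cases nn with h | h <;> omega
      have h15 : Nat.land x 1 = pgV nn := by
        rw [land_eq]
        rcases pg_cases nn with h | h <;> omega
      rw [h11, ev_zero]
      apply Subtype.ext
      rw [hkv x h12]
      show kvY gen x = 1
      unfold kvY
      rw [if_pos h3', kE, ← hnn, h14, h15, tT_pos gen h10 h9]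
      simp
    · rw [if_neg h3] at hx
      simp only [Bool.or_eq_true, Bool.and_eq_true] at hx
      rcases hx with ⟨⟨⟨⟨⟨hx, h4⟩ | ⟨hx, h4⟩⟩ | ⟨hx, h4⟩⟩ | ⟨hx, h4⟩⟩ | ⟨hx, h4⟩⟩ | ⟨hx, h4⟩ <;>
        obtain rfl : x = _ := Nat.eq_of_beq_eq_true hx <;>
        rw [Nat.eq_of_beq_eq_true h4]
      · rw [ev_zero]
        apply Subtype.ext
        rw [hkv _ (by decide)]
        have h5 := hkv2 0 (by decide)
        have e : Nat.add (Nat.mul 2 nV) 0 = 40320 := rfl
        rw [e] at h5
        rw [h5]
        show evalW gen [0, 0, 0] = 1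
        simp only [evalW, one_mul]
        rw [← h0, pow_succ, pow_two]
      · rw [ev_zero]
        apply Subtype.ext
        rw [hkv _ (by decide)]
        have h5 := hkv2 1 (by decide)
        have e : Nat.add (Nat.mul 2 nV) 1 = 40321 := rfl
        rw [e] at h5
        rw [h5]
        show evalW gen [1, 1, 1] = 1
        simp only [evalW, one_mul]
        rw [← h1, pow_succ, pow_two]
      · rw [ev_one, hp0]
      · rw [ev_two, hp1]
      · rw [ev_four, hp2]
      · rw [ev_eight, hp3]
  have hsol := solve h2 p0 p1 p2 p3 kv hbase heq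
  have hall : ∀ v j, v < nV → j < 7 → pathEnd v (rel j) = v → ev p0 p1 p2 p3 (xorAll (eqVars v j)) = 1 := by
    intro v j hv hj hp
    rw [← prod_ev h2 p0 p1 p2 p3 kv (fun y hy => hsol y (heqlt v j hv hj y hy))]
    exact heq v j hv hj hp
  have hp3 : p3 = 1 := by
    have h3 := hall 1049 3 (by decide) (by decide) rel8.1
    rw [rel8.2, ev_eight] at h3
    exact h3
  have hp7 : p0 * p1 * p2 = 1 := by
    have h3 := hall 13080 2 (by decide) (by decide) rel7.1
    rw [rel7.2, ev_seven] at h3
    exact h3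
  -- the submonoid of all elements moving the lifts by the four-group
  have hcc : ∀ m, ∃ t, ev p0 p1 p2 p3 m = cc p0 p1 t := ev_mem h2 p0 p1 p2 p3 hp3 hp7
  let S : Submonoid Y :=
    { carrier := {y | ∀ v, v < nV → ∃ v', v' < nV ∧ ∃ t, y * tT gen v = (cc p0 p1 t : K) * tT gen v'}
      one_mem' := by
        intro v hv
        exact ⟨v, hv, (false, false), by simp [cc]⟩
      mul_mem' := by
        intro y y' hy hy' v hv
        obtain ⟨v1, hv1, t1, h3⟩ := hy' v hv
        obtain ⟨v2, hv2, t2, h4⟩ := hy v1 hv1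
        refine ⟨v2, hv2, (xor t1.1 t2.1, xor t1.2 t2.2), ?_⟩
        rw [← cc_mul h2, mul_assoc, h3, ← mul_assoc, mem_center_iff.mp (hK (cc p0 p1 t1).2) y, mul_assoc, h4,
          Subgroup.coe_mul, mul_assoc] }
  have hgen : ∀ g, g < 2 → gen g ∈ S := by
    intro g hg v hv
    refine ⟨nxD v g, nx_lt hv (by omega), ?_⟩
    have h3 : Nat.add (Nat.mul 2 v) g < nX := by
      have e1 : nX = 40327 := rfl
      have e2 : nV = 20160 := rfl
      show 2 * v + g < _
      omega
    obtain ⟨t, ht⟩ := hcc (valD (Nat.add (Nat.mul 2 v) g))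
    refine ⟨t, ?_⟩
    rw [← ht, ← hsol _ h3, hkv _ h3, kvY_edge gen hv hg]
    unfold kE
    group
  have hSall : ∀ y : Y, y ∈ S := by
    intro y
    have hy : y ∈ closure ({gen 0, gen 1} : Set Y) := by
      rw [htop]
      exact mem_top y
    induction hy using Subgroup.closure_induction with
    | mem x hx =>
      rcases hx with rfl | rfl
      · exact hgen 0 (by decide)
      · exact hgen 1 (by decide)
    | one => exact S.one_mem
    | mul x y _ _ hx hy => exact S.mul_mem hx hy
    | inv x _ hx =>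
      have h3 : x⁻¹ = x ^ (orderOf x - 1) := by
        apply inv_eq_of_mul_eq_one_right
        rw [← pow_succ', Nat.sub_add_cancel (orderOf_pos x), pow_orderOf_eq_one]
      rw [h3]
      exact S.pow_mem hx _
  have hsurj : Function.Surjective (cc p0 p1) := by
    intro x
    obtain ⟨v', hv', t, h3⟩ := hSall x.1 0 (by decide)
    refine ⟨t, ?_⟩
    rw [tT_zero, mul_one] at h3
    have h4 : tT gen v' ∈ K := by
      have h5 : tT gen v' = ((cc p0 p1 t : K) : Y)⁻¹ * x.1 := by
        rw [h3]
        group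
      rw [h5]
      exact K.mul_mem (K.inv_mem (cc p0 p1 t).2) x.2
    rw [H4 v' hv' h4, tT_zero, mul_one] at h3
    exact Subtype.ext h3.symm
  calc Nat.card K ≤ Nat.card (Bool × Bool) := Nat.card_le_card_of_surjective _ hsurj
    _ = 4 := by
      simp [Nat.card_eq_fintype_card]

end Cfsg.Agent.Lib.CoverL34.Lift
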