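import Mathlib
import Cfsg.Agent.Lib.CoverL34.Lift
import Cfsg.Agent.Lib.F4.Basic
import Cfsg.Agent.Lib.SLn.Basic
import Cfsg.Agent.Lib.Classical.Transvections

/-!
# The Cayley graph as a statement about `PSL(3, 4)`
-/

set_option autoImplicit false

namespace Cfsg.Agent.Lib.CoverL34.PSL

open Cfsg.Agent.Lib.CoverL34.Check Cfsg.Agent.Lib.CoverL34.Lift Cfsg.Agent.Lib.F4.Basic
open Cfsg.Agent.Lib.SLn.Basic Matrix

variable {F : Type*} [Field F] [Fintype F]

/-- Numbers as elements of the field. -/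
def emN (ω : F) (a : ℕ) : F := emb ω ⟨a % 4, Nat.mod_lt _ (by norm_num)⟩

theorem emN_fin (ω : F) (a : Fin 4) : emN ω a.1 = emb ω a := by
  unfold emN
  congr 1
  apply Fin.ext
  exact Nat.mod_eq_of_lt a.2

theorem key_xor : ∀ a b : Fin 4, ∃ h : Nat.xor a.1 b.1 < 4, (⟨Nat.xor a.1 b.1, h⟩ : Fin 4) = add4 a b := by
  decide

theorem key_mul : ∀ a b : Fin 4, ∃ h : mulG a.1 b.1 < 4, (⟨mulG a.1 b.1, h⟩ : Fin 4) = mul4 a b := by
  decide

theorem xor_lt {a b : ℕ} (ha : a < 4) (hb : b < 4) : Nat.xor a b < 4 :=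
  (key_xor ⟨a, ha⟩ ⟨b, hb⟩).1

theorem mulG_lt {a b : ℕ} (ha : a < 4) (hb : b < 4) : mulG a b < 4 :=
  (key_mul ⟨a, ha⟩ ⟨b, hb⟩).1

theorem dig_lt (c k : ℕ) : dig c k < 4 := by
  have h : dig c k = (c >>> (2 * k)) &&& (2 ^ 2 - 1) := rfl
  rw [h, Nat.and_two_pow_sub_one_eq_mod]
  exact Nat.mod_lt _ (by norm_num)

section

variable (hF : Fintype.card F = 4) {ω : F} (hω : ω ^ 2 + ω + 1 = 0)

include hF hω

theorem emN_xor {a b : ℕ} (ha : a < 4) (hb : b < 4) : emN ω (Nat.xor a b) = emN ω a + emN ω b := by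
  obtain ⟨h, e⟩ := key_xor ⟨a, ha⟩ ⟨b, hb⟩
  have h1 := emN_fin ω ⟨Nat.xor a b, h⟩
  have h2 := emN_fin ω ⟨a, ha⟩
  have h3 := emN_fin ω ⟨b, hb⟩
  simp only at h1 h2 h3
  rw [h1, h2, h3, e, emb_add hF hω]

theorem emN_mulG {a b : ℕ} (ha : a < 4) (hb : b < 4) : emN ω (mulG a b) = emN ω a * emN ω b := by
  obtain ⟨h, e⟩ := key_mul ⟨a, ha⟩ ⟨b, hb⟩
  have h1 := emN_fin ω ⟨mulG a b, h⟩
  have h2 := emN_fin ω ⟨a, ha⟩
  have h3 := emN_fin ω ⟨b, hb⟩
  simp only at h1 h2 h3
  rw [h1, h2, h3, e, emb_mul hF hω]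

theorem emN_inj {a b : ℕ} (ha : a < 4) (hb : b < 4) (h : emN ω a = emN ω b) : a = b := by
  have h2 := emN_fin ω ⟨a, ha⟩
  have h3 := emN_fin ω ⟨b, hb⟩
  simp only at h2 h3
  rw [h2, h3] at h
  have := emb_injective hF hω h
  simpa using this

omit hF hω in
theorem emN_zero : emN ω 0 = 0 := rfl

omit hF hω in
theorem emN_one : emN ω 1 = 1 := rfl

theorem exists_emN (c : F) : ∃ l, l < 4 ∧ emN ω l = c := by
  obtain ⟨a, ha⟩ := (emb_bijective hF hω).2 c
  exact ⟨a.1, a.2, by rw [emN_fin, ha]⟩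

end

/-- The matrix with a given code. -/
def M (ω : F) (c : ℕ) : Matrix (Fin 3) (Fin 3) F := fun i j => emN ω (dig c (3 * i.1 + j.1))

section

variable (hF : Fintype.card F = 4) {ω : F} (hω : ω ^ 2 + ω + 1 = 0)

include hF hω

theorem entry_spec {c1 c2 c3 s : ℕ} (hs : s < 4) {i j : ℕ} (h : entryOK c1 c2 c3 s i j = true) :
    emN ω (dig c1 (3 * i)) * emN ω (dig c2 j) + emN ω (dig c1 (3 * i + 1)) * emN ω (dig c2 (3 + j)) +
      emN ω (dig c1 (3 * i + 2)) * emN ω (dig c2 (6 + j)) = emN ω s * emN ω (dig c3 (3 * i + j)) := by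
  have h1 := Nat.eq_of_beq_eq_true h
  rw [← emN_mulG hF hω (dig_lt _ _) (dig_lt _ _), ← emN_mulG hF hω (dig_lt _ _) (dig_lt _ _),
    ← emN_mulG hF hω (dig_lt _ _) (dig_lt _ _), ← emN_xor hF hω (mulG_lt (dig_lt _ _) (dig_lt _ _))
      (mulG_lt (dig_lt _ _) (dig_lt _ _)),
    ← emN_xor hF hω (xor_lt (mulG_lt (dig_lt _ _) (dig_lt _ _)) (mulG_lt (dig_lt _ _) (dig_lt _ _)))
      (mulG_lt (dig_lt _ _) (dig_lt _ _)), ← emN_mulG hF hω hs (dig_lt _ _)]
  exact congrArg _ h1

theorem M_mul {c1 c2 c3 s : ℕ} (hs : s < 4) (h : eqM c1 c2 c3 s = true) :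
    M ω c1 * M ω c2 = emN ω s • M ω c3 := by
  simp only [eqM, Bool.and_eq_true] at h
  obtain ⟨⟨⟨⟨⟨⟨⟨⟨h00, h01⟩, h02⟩, h10⟩, h11⟩, h12⟩, h20⟩, h21⟩, h22⟩ := h
  ext i j
  rw [Matrix.mul_apply, Fin.sum_univ_three, Matrix.smul_apply, smul_eq_mul]
  fin_cases i <;> fin_cases j
  · exact entry_spec hF hω hs h00
  · exact entry_spec hF hω hs h01
  · exact entry_spec hF hω hs h02
  · exact entry_spec hF hω hs h10
  · exact entry_spec hF hω hs h11
  · exact entry_spec hF hω hs h12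
  · exact entry_spec hF hω hs h20
  · exact entry_spec hF hω hs h21
  · exact entry_spec hF hω hs h22

end

/-- The determinant of a code. -/
def detG (c : ℕ) : ℕ :=
  let p := fun (x y z : ℕ) => mulG (mulG (dig c x) (dig c y)) (dig c z)
  Nat.xor (Nat.xor (Nat.xor (Nat.xor (Nat.xor (p 0 4 8) (p 0 5 7)) (p 1 3 8)) (p 1 5 6)) (p 2 3 7)) (p 2 4 6)

theorem det_M (hF : Fintype.card F = 4) {ω : F} (hω : ω ^ 2 + ω + 1 = 0) (c : ℕ) :
    (M ω c).det = emN ω (detG c) := by
  have hd := fun k => dig_lt c k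
  have hm : ∀ x y z, mulG (mulG (dig c x) (dig c y)) (dig c z) < 4 := fun x y z => mulG_lt (mulG_lt (hd _) (hd _)) (hd _)
  have he : ∀ x y z, emN ω (mulG (mulG (dig c x) (dig c y)) (dig c z)) = emN ω (dig c x) * emN ω (dig c y) * emN ω (dig c z) := by
    intro x y z
    rw [emN_mulG hF hω (mulG_lt (hd _) (hd _)) (hd _), emN_mulG hF hω (hd _) (hd _)]
  have hneg : ∀ x : F, -x = x := fun x => neg_eq_of_add_eq_zero_left (add_self_eq_zero hF x)
  unfold detG
  simp only []
  rw [emN_xor hF hω (xor_lt (xor_lt (xor_lt (xor_lt (hm _ _ _) (hm _ _ _)) (hm _ _ _)) (hm _ _ _)) (hm _ _ _)) (hm _ _ _),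
    emN_xor hF hω (xor_lt (xor_lt (xor_lt (hm _ _ _) (hm _ _ _)) (hm _ _ _)) (hm _ _ _)) (hm _ _ _),
    emN_xor hF hω (xor_lt (xor_lt (hm _ _ _) (hm _ _ _)) (hm _ _ _)) (hm _ _ _),
    emN_xor hF hω (xor_lt (hm _ _ _) (hm _ _ _)) (hm _ _ _),
    emN_xor hF hω (hm _ _ _) (hm _ _ _)]
  simp only [he]
  rw [Matrix.det_fin_three]
  simp only [M, Fin.val_zero, Fin.val_one, Fin.val_two, mul_zero, zero_add, mul_one, add_zero, Nat.reduceMul, Nat.reduceAdd,
    sub_eq_add_neg, hneg]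

theorem det_gens (g : ℕ) : detG (cG g) = 1 := by
  unfold cG
  by_cases h : Nat.beq g 0 = true
  · rw [if_pos h]
    decide +kernel
  · rw [if_neg h]
    decide +kernel

variable (hF : Fintype.card F = 4) {ω : F} (hω : ω ^ 2 + ω + 1 = 0)

/-- The generators in `SL`. -/
def A (hF : Fintype.card F = 4) {ω : F} (hω : ω ^ 2 + ω + 1 = 0) (g : ℕ) : SpecialLinearGroup (Fin 3) F :=
  ⟨M ω (cG g), by rw [det_M hF hω, det_gens]; rfl⟩

/-- The vertices in `SL`. -/
noncomputable def Xs (v : ℕ) : SpecialLinearGroup (Fin 3) F := tT (A hF hω) v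

theorem M_one : M ω 65793 = 1 := by
  ext i j
  fin_cases i <;> fin_cases j <;> rfl

theorem Xs_val {v : ℕ} (hv : v < nV) : (Xs hF hω v : Matrix (Fin 3) (Fin 3) F) = M ω (codeD v) := by
  induction v using Nat.strong_induction_on with
  | _ v ih =>
    rcases Nat.eq_zero_or_pos v with rfl | h0
    · rw [code_zero, M_one]
      unfold Xs
      rw [tT_zero]
      rfl
    · obtain ⟨h1, h2, h3⟩ := tree_spec h0 hv
      unfold Xs
      rw [tT_pos _ h0 hv]
      have h4 := ih _ h1 (by omega)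
      unfold Xs at h4
      have h5 := eqM_edge (show parV v < nV by omega) (pg_cases v)
      rw [h2, h3] at h5
      show M ω (cG (pgV v)) * ((tT (A hF hω) (parV v) : SpecialLinearGroup (Fin 3) F) : Matrix (Fin 3) (Fin 3) F) = _
      rw [h4, M_mul hF hω (by norm_num) h5, emN_one, one_smul]

/-- Two elements of `SL` with proportional matrices have the same image. -/
theorem toPSL_eq_of_smul {X X' : SpecialLinearGroup (Fin 3) F} {s : F} (h : (X : Matrix (Fin 3) (Fin 3) F) = s • (X' : Matrix (Fin 3) (Fin 3) F)) : toPSL X = toPSL X' := by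
  have h1 : toPSL (X'⁻¹ * X) = 1 := by
    rw [toPSL_eq_one_iff]
    refine ⟨s, ?_⟩
    show ((X'⁻¹ : SpecialLinearGroup (Fin 3) F) : Matrix (Fin 3) (Fin 3) F) * (X : Matrix (Fin 3) (Fin 3) F) = _
    have h2 : ((X'⁻¹ : SpecialLinearGroup (Fin 3) F) : Matrix (Fin 3) (Fin 3) F) * (X' : Matrix (Fin 3) (Fin 3) F) = 1 :=
      congrArg Subtype.val (inv_mul_cancel X')
    rw [h, Matrix.mul_smul, h2]
    ext i j
    simp [Matrix.scalar_apply, Matrix.smul_apply, Matrix.one_apply, Matrix.diagonal_apply]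
  rw [map_mul, map_inv, inv_mul_eq_one] at h1
  exact h1.symm

theorem edge_rel {v g : ℕ} (hv : v < nV) (hg : g < 2) :
    toPSL (A hF hω g) * toPSL (Xs hF hω v) = toPSL (Xs hF hω (nxD v g)) := by
  rw [← map_mul]
  have hg' : g = 0 ∨ g = 1 := by omega
  apply toPSL_eq_of_smul (s := emN ω (sD v g))
  show M ω (cG g) * (Xs hF hω v : Matrix (Fin 3) (Fin 3) F) = _
  rw [Xs_val hF hω hv, Xs_val hF hω (nx_lt hv hg')]
  have hs : sD v g < 4 := by
    have h2 : ∀ (a : ℕ), Nat.land a 3 < 4 := by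
      intro a
      have h3 : Nat.land a 3 = a &&& (2 ^ 2 - 1) := rfl
      rw [h3, Nat.and_two_pow_sub_one_eq_mod]
      exact Nat.mod_lt _ (by norm_num)
    exact h2 _
  exact M_mul hF hω hs (eqM_edge hv hg')

theorem Xs_eq_one {v : ℕ} (hv : v < nV) (h : toPSL (Xs hF hω v) = 1) : v = 0 := by
  by_contra h0
  have h1 : 0 < v := Nat.pos_of_ne_zero h0
  have h2 := scal_spec h1 hv
  obtain ⟨c, hc⟩ := (toPSL_eq_one_iff _).mp h
  rw [Xs_val hF hω hv] at hc
  have h3 : ∀ i j : Fin 3, M ω (codeD v) i j = Matrix.scalar (Fin 3) c i j := fun i j => by rw [hc]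
  have h5 : ∀ (i j : Fin 3), i ≠ j → dig (codeD v) (3 * i.1 + j.1) = 0 := by
    intro i j hij
    have h6 := h3 i j
    rw [Matrix.scalar_apply, Matrix.diagonal_apply_ne _ hij] at h6
    exact emN_inj hF hω (dig_lt _ _) (by norm_num) h6
  have h7 : ∀ (i j : Fin 3), dig (codeD v) (3 * i.1 + i.1) = dig (codeD v) (3 * j.1 + j.1) := by
    intro i j
    apply emN_inj hF hω (dig_lt _ _) (dig_lt _ _)
    have h6 := h3 i i
    have h8 := h3 j j
    rw [Matrix.scalar_apply, Matrix.diagonal_apply_eq] at h6 h8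
    exact h6.trans h8.symm
  have hb : ∀ a b : ℕ, a = b → Nat.beq a b = true := fun a b hab => by
    subst hab
    exact Nat.beq_refl a
  have h9 : isScal (codeD v) = true := by
    simp only [isScal, Bool.and_eq_true]
    refine ⟨⟨⟨⟨⟨⟨⟨?_, ?_⟩, ?_⟩, ?_⟩, ?_⟩, ?_⟩, ?_⟩, ?_⟩
    · exact hb _ _ (h5 0 1 (by decide))
    · exact hb _ _ (h5 0 2 (by decide))
    · exact hb _ _ (h5 1 0 (by decide))
    · exact hb _ _ (h5 1 2 (by decide))
    · exact hb _ _ (h5 2 0 (by decide))
    · exact hb _ _ (h5 2 1 (by decide))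
    · exact hb _ _ (h7 0 1)
    · exact hb _ _ (h7 1 2)
  rw [h2] at h9
  exact absurd h9 (by decide)

theorem pow_three (g : ℕ) (hg : g < 2) (hl : nxD (nxD (nxD 0 g) g) g = 0) : toPSL (A hF hω g) ^ 3 = 1 := by
  have h1 : toPSL (Xs hF hω 0) = 1 := by
    unfold Xs
    rw [tT_zero, map_one]
  have hv : (0 : ℕ) < nV := by decide
  have e1 := edge_rel hF hω hv hg
  have hv1 := nx_lt hv (show g = 0 ∨ g = 1 by omega)
  have e2 := edge_rel hF hω hv1 hg
  have hv2 := nx_lt hv1 (show g = 0 ∨ g = 1 by omega)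
  have e3 := edge_rel hF hω hv2 hg
  rw [← e2, ← e1, h1, mul_one] at e3
  rw [hl, h1, ← mul_assoc] at e3
  rw [pow_succ, pow_two]
  exact e3

theorem closure_gens : Subgroup.closure ({toPSL (A hF hω 0), toPSL (A hF hω 1)} : Set _) = ⊤ := by
  set H := Subgroup.closure ({toPSL (A hF hω 0), toPSL (A hF hω 1)} : Set (ProjectiveSpecialLinearGroup (Fin 3) F)) with hH
  have hA : ∀ g, g < 2 → toPSL (A hF hω g) ∈ H := by
    intro g hg
    have hg' : g = 0 ∨ g = 1 := by omega
    rcases hg' with rfl | rfl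
    · exact Subgroup.subset_closure (Set.mem_insert _ _)
    · exact Subgroup.subset_closure (Set.mem_insert_of_mem _ rfl)
  have hX : ∀ v, toPSL (Xs hF hω v) ∈ H := by
    intro v
    induction v using Nat.strong_induction_on with
    | _ v ih =>
      unfold Xs
      rw [tT_eq]
      split_ifs with h
      · rw [map_mul]
        refine H.mul_mem (hA _ ?_) (ih _ h.2)
        rcases pg_cases v with h1 | h1 <;> omega
      · rw [map_one]
        exact H.one_mem
  -- transvections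
  have hT : ∀ (i j : Fin 3) (hij : i ≠ j) (a : F), toPSL (SpecialLinearGroup.transvection hij a) ∈ H := by
    intro i j hij a
    obtain ⟨l, hl, rfl⟩ := exists_emN hF hω a
    by_cases hl0 : l = 0
    · subst hl0
      have : SpecialLinearGroup.transvection hij (emN ω 0) = 1 := by
        apply Subtype.ext
        show Matrix.transvection i j (emN ω 0) = 1
        rw [emN_zero, Matrix.transvection_zero]
      rw [this, map_one]
      exact H.one_mem
    -- find it in the list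
    have hl1 : ∃ e ∈ tvL, e.1 = i.1 ∧ e.2.1 = j.1 ∧ e.2.2.1 = l := by
      have key : ∀ (i j : Fin 3) (l : Fin 4), i ≠ j → l.1 ≠ 0 → ∃ e ∈ tvL, e.1 = i.1 ∧ e.2.1 = j.1 ∧ e.2.2.1 = l.1 := by
        decide
      exact key i j ⟨l, hl⟩ hij hl0
    obtain ⟨⟨i', j', l', v, s⟩, he, hi', hj', hl'⟩ := hl1
    have hi'' : i' = i.1 := hi'
    have hj'' : j' = j.1 := hj'
    have hl'' : l = l' := hl'.symm
    subst hi'' hj'' hl''
    have h2 := List.all_eq_true.mp tv_all _ he
    simp only [tvOK, Bool.and_eq_true] at h2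
    obtain ⟨⟨⟨⟨⟨⟨⟨⟨⟨h3, e00⟩, e01⟩, e02⟩, e10⟩, e11⟩, e12⟩, e20⟩, e21⟩, e22⟩ := h2
    have hv : v < nV := Nat.blt_eq.mp h3
    have hs : s < 4 := by
      have key : tvL.all (fun e => Nat.blt e.2.2.2.2 4) = true := by decide
      exact Nat.blt_eq.mp (List.all_eq_true.mp key _ he)
    have hent : ∀ (r t : Fin 3), tvEntry i.1 j.1 l v s r.1 t.1 = true := by
      intro r t
      fin_cases r <;> fin_cases t
      · exact e00
      · exact e01
      · exact e02
      · exact e10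
      · exact e11
      · exact e12
      · exact e20
      · exact e21
      · exact e22
    have hmat : (Xs hF hω v : Matrix (Fin 3) (Fin 3) F) = emN ω s • (SpecialLinearGroup.transvection hij (emN ω l) : Matrix (Fin 3) (Fin 3) F) := by
      rw [Xs_val hF hω hv]
      show _ = emN ω s • Matrix.transvection i j (emN ω l)
      rw [Matrix.transvection]
      ext r t
      have h5 := Nat.eq_of_beq_eq_true (hent r t)
      have h6 : tvE i.1 j.1 l r.1 t.1 < 4 := by
        unfold tvE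
        split_ifs
        · exact hl
        · norm_num
        · norm_num
      have h7 : emN ω (tvE i.1 j.1 l r.1 t.1) = ((1 : Matrix (Fin 3) (Fin 3) F) + Matrix.single i j (emN ω l)) r t := by
        rw [Matrix.add_apply, Matrix.single_apply, Matrix.one_apply]
        unfold tvE
        by_cases h8 : r = i ∧ t = j
        · obtain ⟨rfl, rfl⟩ := h8
          simp [hij]
        · have h9 : (Nat.beq r.1 i.1 && Nat.beq t.1 j.1) = false := by
            by_contra h10
            simp only [Bool.not_eq_false, Bool.and_eq_true] at h10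
            exact h8 ⟨Fin.ext (Nat.eq_of_beq_eq_true h10.1), Fin.ext (Nat.eq_of_beq_eq_true h10.2)⟩
          have h11 : ¬(i = r ∧ j = t) := fun h => h8 ⟨h.1.symm, h.2.symm⟩
          rw [if_neg (by rw [h9]; exact Bool.false_ne_true), if_neg h11, add_zero]
          by_cases h12 : r = t
          · subst h12
            simp [emN_one]
          · have h13 : Nat.beq r.1 t.1 = false := by
              cases h : Nat.beq r.1 t.1
              · rfl
              · exact absurd (Fin.ext (Nat.eq_of_beq_eq_true h)) h12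
            rw [h13, if_neg Bool.false_ne_true, if_neg h12, emN_zero]
      rw [Matrix.smul_apply, smul_eq_mul, ← h7, ← emN_mulG hF hω hs h6, ← h5]
      rfl
    have h4 := toPSL_eq_of_smul hmat
    rw [← h4]
    exact hX v
  rw [eq_top_iff]
  rintro x -
  obtain ⟨y, rfl⟩ := toPSL_surjective x
  have hy : y ∈ Subgroup.closure {t : SpecialLinearGroup (Fin 3) F | ∃ (i j : Fin 3) (hij : i ≠ j) (a : F),
      t = SpecialLinearGroup.transvection hij a} := by
    rw [Cfsg.Agent.Lib.Classical.Transvections.closure_transvections_eq_top]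
    exact Subgroup.mem_top y
  induction hy using Subgroup.closure_induction with
  | mem z hz =>
    obtain ⟨i, j, hij, a, rfl⟩ := hz
    exact hT i j hij a
  | one => rw [map_one]; exact H.one_mem
  | mul u w _ _ hu hw => rw [map_mul]; exact H.mul_mem hu hw
  | inv u _ hu => rw [map_inv]; exact H.inv_mem hu

end Cfsg.Agent.Lib.CoverL34.PSL
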