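import Mathlib
import Cfsg.Agent.Lib.CoverL34.PSL
import Cfsg.Agent.Lib.Schur.Stem

/-!
# Central extensions of `PSL(3, 4)` of exponent two
-/

set_option autoImplicit false

namespace Cfsg.Agent.Lib.CoverL34.Cover

open Cfsg.Agent.Lib.CoverL34.Check Cfsg.Agent.Lib.CoverL34.Lift Cfsg.Agent.Lib.CoverL34.PSL
open Cfsg.Agent.Lib.SLn.Basic Matrix Subgroup
open scoped commutatorElement

/-- A field with four elements has a root of `X² + X + 1`. -/
theorem exists_root {F : Type*} [Field F] [Fintype F] (hF : Fintype.card F = 4) :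
    ∃ ω : F, ω ^ 2 + ω + 1 = 0 := by
  classical
  have h2 := Cfsg.Agent.Lib.F4.Basic.add_self_eq_zero hF
  -- an element outside `{0, 1}`
  have h3 : ∃ ω : F, ω ≠ 0 ∧ ω ≠ 1 := by
    by_contra h
    push Not at h
    have h4 : (Finset.univ : Finset F) ⊆ {0, 1} := by
      intro x _
      by_cases hx : x = 0
      · simp [hx]
      · simp [h x hx]
    have h5 := Finset.card_le_card h4
    rw [Finset.card_univ, hF] at h5
    have h6 : ({0, 1} : Finset F).card ≤ 2 := Finset.card_le_two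
    omega
  obtain ⟨ω, h0, h1⟩ := h3
  refine ⟨ω, ?_⟩
  have h4 : ω ^ 4 = ω := by
    have h5 := FiniteField.pow_card ω
    rwa [hF] at h5
  have h6 : ω ^ 3 = 1 := by
    have : ω * ω ^ 3 = ω * 1 := by
      rw [mul_one, ← pow_succ', h4]
    exact mul_left_cancel₀ h0 this
  have h7 : (ω + 1) ≠ 0 := by
    intro h
    apply h1
    have : ω = (ω + 1) - 1 := by ring
    rw [this, h]
    have h8 := h2 1
    calc (0 : F) - 1 = (1 + 1) - 1 := by rw [h8]
      _ = 1 := by ring
  have h8 : (ω + 1) * (ω ^ 2 + ω + 1) = 0 := by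
    have h9 : (ω + 1) * (ω ^ 2 + ω + 1) = ω ^ 3 + 2 * ω ^ 2 + 2 * ω + 1 := by ring
    rw [h9, h6, Cfsg.Agent.Lib.F4.Basic.two_eq_zero hF]
    simp [h2 1]
  exact (mul_eq_zero.mp h8).resolve_left h7

/-- Commutators ignore central factors. -/
theorem comm_mul_central {Y : Type*} [Group Y] {a b y : Y} (hb : b ∈ center Y) : ⁅a * b, y⁆ = ⁅a, y⁆ := by
  have hb' := mem_center_iff.mp hb y
  rw [commutatorElement_def, commutatorElement_def]
  calc a * b * y * (a * b)⁻¹ * y⁻¹ = a * (b * y) * (b⁻¹ * a⁻¹) * y⁻¹ := by group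
    _ = a * (y * b) * (b⁻¹ * a⁻¹) * y⁻¹ := by rw [hb']
    _ = a * y * a⁻¹ * y⁻¹ := by group

theorem comm_central_mul {Y : Type*} [Group Y] {a b y : Y} (hb : b ∈ center Y) : ⁅y, a * b⁆ = ⁅y, a⁆ := by
  have hb' := mem_center_iff.mp hb y⁻¹
  rw [commutatorElement_def, commutatorElement_def]
  calc y * (a * b) * y⁻¹ * (a * b)⁻¹ = y * a * (b * y⁻¹) * (b⁻¹ * a⁻¹) := by group
    _ = y * a * (y⁻¹ * b) * (b⁻¹ * a⁻¹) := by rw [hb']
    _ = y * a * y⁻¹ * a⁻¹ := by group

/-- A subgroup whose product with a central subgroup is everything contains the commutators. -/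
theorem commutator_le_of_sup_central {Y : Type*} [Group Y] (H K : Subgroup Y) (hK : K ≤ center Y)
    (h : H ⊔ K = ⊤) : commutator Y ≤ ⁅H, H⁆ := by
  have hn : K.Normal := by
    constructor
    intro n hn g
    rw [mem_center_iff.mp (hK hn) g]
    simpa using hn
  rw [commutator_def, Subgroup.commutator_le]
  intro x _ y _
  have hx : x ∈ H ⊔ K := by
    rw [h]
    exact mem_top x
  have hy : y ∈ H ⊔ K := by
    rw [h]
    exact mem_top y
  obtain ⟨a, ha, b, hb, rfl⟩ := Subgroup.mem_sup_of_normal_right.mp hx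
  obtain ⟨c, hc, d, hd, rfl⟩ := Subgroup.mem_sup_of_normal_right.mp hy
  rw [comm_mul_central (hK hb), comm_central_mul (hK hd)]
  exact Subgroup.commutator_mem_commutator ha hc

theorem eq_top_of_sup_central {Y : Type*} [Group Y] (hY : commutator Y = ⊤) (H K : Subgroup Y) (hK : K ≤ center Y)
    (h : H ⊔ K = ⊤) : H = ⊤ := by
  rw [eq_top_iff, ← hY]
  exact (commutator_le_of_sup_central H K hK h).trans H.commutator_le_self

/-- **Main lemma**: a perfect central extension of `PSL(3, 4)` with kernel of exponent two has kernel of order at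
most four. -/
theorem card_ker_le {Y : Type*} [Group Y] [Finite Y] {F : Type*} [Field F] [Fintype F] (hF : Fintype.card F = 4)
    (f : Y →* ProjectiveSpecialLinearGroup (Fin 3) F) (hf : Function.Surjective f) (hc : f.ker ≤ center Y)
    (he : ∀ x ∈ f.ker, x * x = 1) (hp : commutator Y = ⊤) : Nat.card f.ker ≤ 4 := by
  obtain ⟨ω, hω⟩ := exists_root hF
  have h3a : toPSL (A hF hω 0) ^ 3 = 1 := pow_three hF hω 0 (by decide) (by decide +kernel)
  have h3b : toPSL (A hF hω 1) ^ 3 = 1 := pow_three hF hω 1 (by decide) (by decide +kernel)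
  obtain ⟨a0, ha0⟩ := hf (toPSL (A hF hω 0))
  obtain ⟨b0, hb0⟩ := hf (toPSL (A hF hω 1))
  let gen : ℕ → Y := fun g => if g = 0 then a0 ^ 4 else b0 ^ 4
  have hg0 : gen 0 = a0 ^ 4 := rfl
  have hg1 : gen 1 = b0 ^ 4 := rfl
  have four : ∀ z : ProjectiveSpecialLinearGroup (Fin 3) F, z ^ 3 = 1 → z ^ 4 = z := by
    intro z hz
    rw [pow_succ, hz, one_mul]
  have hgen : ∀ g, g < 2 → f (gen g) = toPSL (A hF hω g) := by
    intro g hg
    have hg' : g = 0 ∨ g = 1 := by omega
    rcases hg' with rfl | rfl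
    · rw [hg0, map_pow, ha0, four _ h3a]
    · rw [hg1, map_pow, hb0, four _ h3b]
  have cube : ∀ z : Y, f z ^ 3 = 1 → (z ^ 4) ^ 3 = 1 := by
    intro z hz
    have h1 : z ^ 3 ∈ f.ker := by
      rw [MonoidHom.mem_ker, map_pow, hz]
    have h2 := he _ h1
    calc (z ^ 4) ^ 3 = (z ^ 3 * z ^ 3) ^ 2 := by
          rw [← pow_mul, ← pow_add, ← pow_mul]
      _ = 1 := by rw [h2, one_pow]
  have h0 : gen 0 ^ 3 = 1 := by
    rw [hg0]
    exact cube a0 (by rw [ha0, h3a])
  have h1 : gen 1 ^ 3 = 1 := by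
    rw [hg1]
    exact cube b0 (by rw [hb0, h3b])
  have htop : closure {gen 0, gen 1} = ⊤ := by
    apply eq_top_of_sup_central hp _ f.ker hc
    have h2 := Cfsg.Agent.Lib.Schur.Stem.closure_lifts_eq_top f hf (closure_gens hF hω)
      (t := {gen 0, gen 1} ∪ (f.ker : Set Y)) (by
        rintro x (rfl | rfl)
        · exact ⟨gen 0, Or.inl (Set.mem_insert _ _), hgen 0 (by decide)⟩
        · exact ⟨gen 1, Or.inl (Set.mem_insert_of_mem _ rfl), hgen 1 (by decide)⟩)
      Set.subset_union_right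
    rw [Subgroup.closure_union, Subgroup.closure_eq] at h2
    exact h2
  have htT : ∀ v, f (tT gen v) = toPSL (Xs hF hω v) := by
    intro v
    exact map_tT gen (A hF hω) f toPSL hgen v
  apply card_le_four gen f.ker hc he h0 h1 htop
  · intro v hv g hg
    rw [MonoidHom.mem_ker]
    unfold kE
    rw [map_mul, map_mul, map_inv, hgen g hg, htT, htT, edge_rel hF hω hv hg, mul_inv_cancel]
  · intro v hv h2
    rw [MonoidHom.mem_ker, htT] at h2
    exact Xs_eq_one hF hω hv h2

end Cfsg.Agent.Lib.CoverL34.Cover
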